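import Mathlib
import Cfsg.Agent.Lib.Helper80.MinSU2.Defs
import Cfsg.Agent.Lib.Helper84.MinSU.oZT0
import Cfsg.Agent.Lib.Helper81.MinSU.G1

set_option autoImplicit false

/-! helper80's farm S2153, piece tZ4 -/

namespace Cfsg.Agent.Lib.Helper57.MinSU2

open Matrix Cfsg.Agent.Lib.Helper13 Cfsg.Agent.Lib.Helper5 Cfsg.Agent.Lib.Helper57.RootSU
  Cfsg.Agent.Lib.Helper83.MinSU Cfsg.Agent.Lib.Helper80.MinSU2

variable {F : Type*} [Field F] [Fintype F] {m n : ℕ}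

/-- [tZ4] -/
theorem exists_z4 (hF : Fintype.card F = 2 ^ 2) (w : Fin 4 → F) (hw : w ≠ 0)
    (hww : Cfsg.hermForm 4 F 2 w w = 0) :
    ∃ z : Cfsg.SU 4 F 2, z ^ 3 = 1 ∧ (∀ v : Fin 4 → F, z.1.1 *ᵥ v = v → v = 0) ∧
      ut hF w 1 * z = z * ut hF w 1 := by
  classical
  obtain ⟨om, hom0, hom1, hom3⟩ := Cfsg.Agent.Lib.Helper84.MinSU.O.oZT0_omega hF
  have h2 : (2 : F) = 0 := Cfsg.Agent.Lib.Helper84.MinSU.O.oZT0_two hF
  have hom2 : om ^ 2 ≠ 1 := by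
    intro h
    apply hom1
    calc om = om ^ 3 * om⁻¹ * om⁻¹ := by field_simp
      _ = (om ^ 2)⁻¹ := by rw [hom3, one_mul, pow_two, mul_inv]
      _ = 1 := by rw [h, inv_one]
  let d : Fin 4 → F := ![om ^ 2, om ^ 2, om, om]
  have hd3 : ∀ i, d i ^ 3 = 1 := by
    intro i
    have e : (om ^ 2) ^ 3 = 1 := by rw [← pow_mul, mul_comm, pow_mul, hom3, one_pow]
    fin_cases i
    · exact e
    · exact e
    · exact hom3
    · exact hom3
  have hd1 : ∀ i, d i ≠ 1 := by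
    intro i
    fin_cases i
    · exact hom2
    · exact hom2
    · exact hom1
    · exact hom1
  have hdet : (Matrix.diagonal d).det = 1 := by
    rw [Matrix.det_diagonal, Fin.prod_univ_four]
    show om ^ 2 * om ^ 2 * om * om = 1
    calc om ^ 2 * om ^ 2 * om * om = om ^ 3 * om ^ 3 := by ring
      _ = 1 := by rw [hom3, one_mul]
  obtain ⟨z0, hz0, hz03⟩ := Cfsg.Agent.Lib.Helper84.MinSU.O.oZT0_diag d hd3 hdet
  let w0 : Fin 4 → F := ![0, 0, 1, 1]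
  have hw0 : w0 ≠ 0 := by
    intro h
    have := congrFun h 2
    exact one_ne_zero this
  have hw00 : Cfsg.hermForm 4 F 2 w0 w0 = 0 := by
    unfold Cfsg.hermForm
    rw [Fin.sum_univ_four]
    show (0 : F) * 0 ^ 2 + 0 * 0 ^ 2 + 1 * 1 ^ 2 + 1 * 1 ^ 2 = 0
    calc (0 : F) * 0 ^ 2 + 0 * 0 ^ 2 + 1 * 1 ^ 2 + 1 * 1 ^ 2 = 2 := by ring
      _ = 0 := h2
  have hz0w : z0.1.1 *ᵥ w0 = om • w0 := by
    rw [hz0]
    funext i
    rw [Matrix.mulVec_diagonal, Pi.smul_apply, smul_eq_mul]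
    fin_cases i
    · show om ^ 2 * (0 : F) = om * 0
      rw [mul_zero, mul_zero]
    · show om ^ 2 * (0 : F) = om * 0
      rw [mul_zero, mul_zero]
    · rfl
    · rfl
  have hz0f : ∀ v : Fin 4 → F, z0.1.1 *ᵥ v = v → v = 0 := by
    intro v hv
    funext i
    have h1 := congrFun hv i
    rw [hz0, Matrix.mulVec_diagonal] at h1
    have h2 : (d i - 1) * v i = 0 := by rw [sub_mul, one_mul, h1, sub_self]
    exact (mul_eq_zero.1 h2).resolve_left (sub_ne_zero.2 (hd1 i))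
  obtain ⟨g, hg⟩ := Cfsg.Agent.Lib.Helper81.MinSU.exists_su_map hF (by norm_num) w0 w hw0 hw hw00 hww
  have hgi : (g⁻¹).1.1 *ᵥ w = w0 := by rw [← hg]; exact SU_inv_mulVec_mulVec g w0
  refine ⟨g * z0 * g⁻¹, ?_, ?_, ?_⟩
  · rw [conj_pow, hz03, mul_one, mul_inv_cancel]
  · intro v hv
    rw [SU_mul_mulVec, SU_mul_mulVec] at hv
    have h1 : z0.1.1 *ᵥ ((g⁻¹).1.1 *ᵥ v) = (g⁻¹).1.1 *ᵥ v := by
      conv_rhs => rw [← hv]
      exact (SU_inv_mulVec_mulVec g _).symm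
    have h3 := hz0f _ h1
    have h4 : g.1.1 *ᵥ ((g⁻¹).1.1 *ᵥ v) = v := by
      have := SU_inv_mulVec_mulVec g⁻¹ v
      rwa [inv_inv] at this
    rw [← h4, h3, mulVec_zero]
  · apply Cfsg.Agent.Lib.Helper84.MinSU.O.oZT0_comm hF _ om hom3 w _ hww
    rw [SU_mul_mulVec, SU_mul_mulVec, hgi, hz0w, mulVec_smul, hg]

end Cfsg.Agent.Lib.Helper57.MinSU2
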